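import Cfsg.Agent.SZ.M7
import Cfsg.Agent.CoS.Abs

/-! # Centralizers of elements of order three in groups of Conway type: abstract part -/

set_option autoImplicit false

namespace Cfsg.Agent.CX

open Cfsg Cfsg.Spor Cfsg.Agent.GT Cfsg.Agent.TT Cfsg.Agent.XL Cfsg.Agent.M24 Subgroup
open scoped commutatorElement

variable {X G S : Type*} [Group X] [Group G] [Group S] {K M : Subgroup (X × G)} {Q0 R : Subgroup X}
  {Q : Subgroup G} {z0 g0 x r : X} {z g y : G}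

theorem comm_map (e : X ≃* G) (h : x ∈ ⁅C1[x], C1[x]⁆) : e x ∈ ⁅C1[e x], C1[e x]⁆ := by
  rw [← show _ = C1[e x] from map_cent1 (φ := e.toMonoidHom) e.injective fun a _ => e.surjective a,
    ← map_commutator]
  exact ⟨x, h, rfl⟩

theorem suz_comm [Finite G] (h : LT Q z g 3 25920) (hy : y ∈ C1[z]) (o : orderOf y = 3)
    (hc : 16 ≤ Nat.card (C1[y] ⊓ Q : Subgroup G)) : y ∈ ⁅C1[y], C1[y]⁆ := by
  obtain ⟨φ, rfl, -, rfl⟩ := SZ.iso' h
  obtain ⟨y, rfl⟩ := φ.surjective y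
  rw [← show _ = C1[φ y] from map_cent1 (φ := φ.toMonoidHom) φ.injective fun a _ => φ.surjective a,
    ← map_inf _ _ _ φ.injective, card_map_of_injective φ.injective] at hc
  obtain ⟨k, rfl⟩ := SZ.cls3 (mem_cent1.2 (φ.injective (by rw [map_mul, map_mul]; exact mem_cent1.1 hy)))
    (φ.orderOf_eq y ▸ o) hc
  exact comm_map φ (comm_map (MulAut.conj k) SZ.y_comm)

theorem perf3 [Finite G] {ρ : G} (o : orderOf y = 3) {π : C1[y] →* S} (h : Qt y π) (a : C1[y])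
    (e1 : ρ * y * ρ⁻¹ = a) (e2 : ρ * a * ρ⁻¹ = y⁻¹) (ha : π a ∈ ⁅C1[π a], C1[π a]⁆) :
    y ∈ ⁅C1[y], C1[y]⁆ := by
  by_contra n
  set D : Subgroup G := C1[y] ⊓ C1[(a : G)]
  have le : ⁅D, D⁆ ≤ ⁅C1[y], C1[y]⁆ := commutator_mono inf_le_left inf_le_left
  have c : C1[π a] ≤ im π D := fun s hs => by
    obtain ⟨s, rfl⟩ := h.sur s
    refine mem_im_of_mem s.2 ⟨s.2, mem_cent1.2 (commutatorElement_eq_one_iff_mul_comm.1 (by_contra fun b => n ?_))⟩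
    refine (zpowers_le.2 (commutator_mem_commutator s.2 a.2) : _ ≤ ⁅C1[y], C1[y]⁆)
      (mem_zp_of_prime (o ▸ Nat.prime_three) (h.one (a := ⁅s, a⁆).1 ?_) b)
    rw [map_commutatorElement, commutatorElement_eq_one_iff_mul_comm]; exact mem_cent1.1 hs
  have hD : ρ ∈ N[⁅D, D⁆] := norm_le_norm_commutator_self D (conj_eq_self_iff.1 (by
    rw [conj_inf, conj_cent1, conj_cent1, e1, e2, inf_comm]
    exact congrArg (· ⊓ _) (Subgroup.ext fun u => by simp only [mem_cent1]; exact Commute.inv_right_iff)))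
  have b := commutator_mono c c ha
  rw [← im_commutator inf_le_left inf_le_left] at b
  obtain ⟨u, u1, u2, u3⟩ := mem_im.1 b
  have v := h.one (a := a⁻¹ * ⟨u, u1⟩).1 (by rw [map_mul, map_inv, u3, inv_mul_cancel])
  have u4 := conj_mem_of_mem_norm hD u2
  have ay : Commute (a : G) y := mem_cent1.1 a.2
  rw [coe_mul, coe_inv] at v
  rcases mem_zp3 o v with v | v | v <;> rw [inv_mul_eq_iff_eq_mul] at v <;> rw [show u = _ from v] at u2 u4
  · rw [mul_one, e2] at u4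
    exact n (inv_mem_iff.1 (le u4))
  · rw [← conj_mul, e1, e2] at u4
    have := mul_mem u2 (inv_mem u4)
    rw [mul_inv_rev, inv_inv, ay.eq, mul_assoc, mul_inv_cancel_left, ← sq] at this
    exact n (by simpa [← pow_mul, pow_succ _ 3, o ▸ pow_orderOf_eq_one y] using le (pow_mem this 2))
  · rw [← conj_mul, ← conj_inv, e1, e2] at u4
    have := inv_mem (mul_mem u4 u2)
    rw [mul_assoc, inv_mul_cancel_left, mul_inv_rev, inv_inv, ← sq] at this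
    exact n (by simpa [← pow_mul, pow_succ _ 3, o ▸ pow_orderOf_eq_one y] using le (pow_mem this 2))

theorem card_cent_le [Finite X] (h : KZ K (z0, z)) (hQ : ∀ p ∈ K, p.1 ∈ Q0 ↔ p.2 ∈ Q) (l : Q ≤ C1[z])
    (hp : (x, y) ∈ K) : Nat.card (C1[y] ⊓ Q : Subgroup G) ≤ Nat.card (C1[x] ⊓ Q0 : Subgroup X) := by
  set A := K ⊓ (C1[y] ⊓ Q).comap (MonoidHom.snd X G)
  have e : A.map (MonoidHom.snd X G) = C1[y] ⊓ Q := le_antisymm (by rintro _ ⟨p, a, rfl⟩; exact a.2)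
    fun d hd => let ⟨c, a⟩ := h.snd d (l hd.2); ⟨(c, d), ⟨a, hd⟩, rfl⟩
  rw [← e, card_map_of (S := A) fun p a => h.gr' p a.1,
    ← card_map_of (S := A) (φ := MonoidHom.fst X G) fun p a => h.gr p a.1]
  refine card_le_of_le ?_
  rintro _ ⟨p, a, rfl⟩
  exact ⟨mem_cent1.2 (congrArg Prod.fst (h.comm' a.1 hp (mem_cent1.1 a.2.1)).eq), (hQ p a.1).2 a.2.2⟩

theorem GY.ker' {X' G' : Type*} [Group X'] [Group G'] {π0 : C1[x] →* X'} {π : C1[y] →* G'} (h0 : Qt x π0)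
    {φ : X' ≃* G'} (hφ : ∀ p ∈ im (qq π0 π) K ⊔ im (qq π0 π) M, φ p.1 = p.2) {p : X × G}
    (hp : p ∈ GY K M x y) (e : p.2 = 1) : p.1 ∈ zpowers x := by
  have b := mem_im_of_mem (f := qq π0 π) (GY.le hp) hp
  rw [GY, im_sup inf_le_right inf_le_right, im_inf_dom, im_inf_dom] at b
  refine (h0.one (a := ⟨p.1, (GY.le hp).1⟩)).1 (φ.injective ((hφ _ b).trans ?_))
  exact (congrArg π (Subtype.ext e : (⟨p.2, (GY.le hp).2⟩ : C1[y]) = 1)).trans (by simp)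

variable [Finite X] [Finite G]

theorem ker6 (h : RH z0 (g0 * z0 * g0⁻¹) z K M) (d : Dsc R z0 g0 x 3 25920) (hy : (x, y) ∈ K)
    (ho : Odd (orderOf x)) :
    ∀ p ∈ GY K M x y, (p.1 = 1 → p.2 ∈ zpowers y) ∧ (p.2 = 1 → p.1 ∈ zpowers x) := by
  have h0 := exists_Qt ho
  have h1 := exists_Qt (y := y) ((h.kz.ord hy :).symm ▸ ho)
  obtain ⟨a, -, r⟩ := h.desc' d hy h0 h1
  obtain ⟨ψ, e⟩ := SZ.rel (d.lt h0) r
  exact fun p hp => ⟨GY.ker h1 (φ := ψ.toMonoidHom) e hp, GY.ker' h0 e hp⟩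

theorem three (h : RH z0 (g0 * z0 * g0⁻¹) z K M) (d : Dsc R z0 g0 x 3 25920) (hy : (x, y) ∈ K)
    (o : orderOf x = 3) (hr : r ∈ C1[z0]) (c : Commute (r * x * r⁻¹) x) (e : r * (r * x * r⁻¹) * r⁻¹ = x⁻¹)
    (hc : 16 ≤ Nat.card (C1[r * x * r⁻¹] ⊓ R : Subgroup X)) :
    y ∈ ⁅C1[y], C1[y]⁆ ∧ ∃ π : C1[y] →* Suz, Qt y π := by
  have o' : orderOf y = 3 := (h.kz.ord hy :).trans o
  have h0 := exists_Qt (y := x) (o ▸ by decide)
  have h1 := exists_Qt (y := y) (o' ▸ by decide)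
  obtain ⟨a, -, k⟩ := h.desc' d hy h0 h1
  obtain ⟨ψ, b⟩ := SZ.rel (d.lt h0) k
  obtain ⟨φ, -⟩ := SZ.iso' (d.lt h0)
  refine ⟨?_, _, h1.comp (φ.trans ψ).symm⟩
  obtain ⟨ρ, hρ⟩ := h.kz.fst r hr
  have k1 := mul_mem (mul_mem hρ hy) (inv_mem hρ)
  have k2 := congrArg Prod.snd (h.kz.gr.ext (mul_mem (mul_mem hρ k1) (inv_mem hρ)) (inv_mem hy) e)
  have k3 : r * x * r⁻¹ ∈ C1[x] := mem_cent1.2 c
  have k4 : ρ * y * ρ⁻¹ ∈ C1[y] := (h.kz.gr.memY hy k1 c).2.2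
  refine perf3 o' h1 ⟨_, k4⟩ rfl k2 ?_
  rw [← show ψ (QuotientGroup.mk' _ ⟨_, k3⟩) = QuotientGroup.mk' _ ⟨_, k4⟩ from
    b _ (mem_sup_left (mem_qq.2 ⟨⟨_, k3⟩, ⟨_, k4⟩, k1, rfl⟩))]
  have x1 : r * x * r⁻¹ ∉ zpowers x := fun a => by
    have n : x⁻¹ ≠ x := fun a => absurd (o ▸ orderOf_dvd_of_pow_eq_one (n := 2)
      (by rw [sq]; exact inv_eq_iff_mul_eq_one.1 a)) (by norm_num)
    rcases mem_zp3 o a with a | a | a
    · rw [conj_eq_one_iff.1 a] at o; simp at o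
    · rw [a, a] at e; exact n e.symm
    · rw [a, ← conj_inv, a, inv_inv] at e; exact n e.symm
  have := Fact.mk Nat.prime_three
  refine comm_map ψ (suz_comm (d.lt h0) (mem_cent1.2 ((show Commute (⟨_, k3⟩ : C1[x]) ⟨z0, _⟩ from
    Subtype.ext (mem_cent1.1 (h.kz.c1 k1))).map _).eq) (orderOf_eq_prime ?_ fun a => x1 (h0.one.1 a))
    (hc.trans ?_))
  · rw [← map_pow, show (⟨_, k3⟩ : C1[x]) ^ 3 = 1 from Subtype.ext ?_, map_one]
    exact (conj_pow (a := r)).trans (by rw [← o, pow_orderOf_eq_one]; simp)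
  · rw [← card_im_of_inf_eq_bot (inf_le_right.trans d.le) (eq_bot_iff.2 ((inf_le_inf_right _ inf_le_right).trans
      (h0.inf_bot d.es).le))]
    refine card_le_of_le (im_inf_le.trans (inf_le_inf_right _ fun s hs => ?_))
    obtain ⟨u, u1, u2, rfl⟩ := mem_im.1 hs
    exact mem_cent1.2 ((show Commute (⟨u, u1⟩ : C1[x]) ⟨_, k3⟩ from Subtype.ext (mem_cent1.1 u2)).map _).eq

end Cfsg.Agent.CX
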