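import Cfsg.Agent.CX.C3
import Cfsg.Agent.CX.Abs
import Cfsg.Agent.CW.St

/-! # The centralizer of an element of order three in a group of Conway type -/

set_option autoImplicit false

namespace Cfsg.Agent.CX

open Cfsg Cfsg.Spor Cfsg.Agent.GT Cfsg.Agent.TT Cfsg.Agent.XL Cfsg.Agent.M24 Cfsg.Agent.Leech Cfsg.Agent.CoS
  Cfsg.Agent.CW Subgroup
open scoped commutatorElement

theorem card_ge {L : List ℕ} {H : Subgroup Co1} (hs : ndp L = true) (h : ∀ k ∈ L, ∃ g ∈ H, mt g = k) :
    L.length ≤ Nat.card H := by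
  rw [← List.toFinset_card_of_nodup (ndp_sound hs), ← Set.ncard_coe_finset, ← SetLike.coe_sort_coe,
    Nat.card_coe_set_eq, ← Set.ncard_image_of_injective _ mt_inj]
  exact Set.ncard_le_ncard (fun k hk => h k (by simpa using hk)) ((Set.toFinite _).image _)

theorem Q1_has {s : ℕ} (h : tQ.has s = true) : ∃ k ∈ Q1, mt k = s :=
  let ⟨k, a, b⟩ := tab.has h; ⟨pj k, ⟨k, a, rfl⟩, (mt_pj k).trans b⟩

/-- data -/
def q16 : List ℕ := [nat_lit
  0x800000400000200000100000080000040000020000010000008000004000002000001000000800000400000200000100000080000040000020000010000008000004000002000001,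
  nat_lit
  0xfdb28e40000f20002810002408000a04002d020a900100020080060046c000202f00100f000801000401000201000101000081000041000020000011000008000004000002000001,
  nat_lit
  0xc0128e40024e510a4a21149601961a01260042144e411edc490e06004000451e1c00148e000a4e000080000040000f1200040000020000002000049e000008000004000002000001,
  nat_lit
  0xbda000400241510a622114b201961001262d421ede411ede490e000046c0451e33001481000a4f000081000041000f1300040100020100002000049f000008000004000002000001,
  nat_lit
  0xd48e6b342f3134928f1992cf391fab28109e1f0e591592df2c955838c6234510e20981ce0001ec000dc60007b500049e0003da000f69000020000f13000008000004000002000001,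
  nat_lit
  0xe924f53427e338261b28809730832350884e22a20728341318a9dc38c62300283e098fdc00093e0003da000f69000010000dc60007b5000020000101000008000004000002000001,
  nat_lit
  0xa0aeef00148e111cad5017fa503ff0508fea42144e3013fe54060740500f18042440024e00040000080100049e0007b4000a4e000011000020000040000008000004000002000001,
  nat_lit
  0x9d047f001000601027610f30241b68281b680200007007b060301f4056cf208228400000000080000a4f000010000f6800080000049f000020000200000008000004000002000001,
  nat_lit
  0xdd1c61001481111c855017de503ffa508fc7421ede3013fc5406014056cf18040b40024100040100080000049f0007b5000a4f000010000020000041000008000004000002000001,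
  nat_lit
  0xa93ce5342f3e3492a71992eb391fa12810b31f04c91592dd2c955e38c0e34510cd0981c10001ed000dc70007b400049f0003db000f68000020000f12000008000004000002000001,
  nat_lit
  0x94967b3427ec3826332880b330832950886322a89728341118a9da38c0e3002811098fd300093f0003db000f68000011000dc70007b4000020000100000008000004000002000001,
  nat_lit
  0xe0b6f100100f60100f610f14241b62281b45020a907007b260301940500f20820740000f000081000a4e000011000f6900080100049e000020000201000008000004000002000001,
  nat_lit
  0x852abf4002412007401007800803c004002d0202810108130085c00046c000283e001481000800000401000201000101000081000041000020000010000008000004000002000001,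
  nat_lit
  0x8cbe710981ce0583fd243a8561257e012b1322aa3924838705a2d5056e13208207342f31000dc60001ec00010000020100093f000f13000020000f69000008000004000002000001,
  nat_lit
  0xf10cff0981c10583d5243aa1612574012b3e22a0a924838505a2d30568d3208228342f3e000dc70001ed00010100020000093e000f12000020000f68000008000004000002000001,
  nat_lit
  0x899e5d098fdc058e03243157612053012b3e22a20724812b05a7140568d32080863427e3000dc60001ed00010100020000093e000f12000020000f69000008000004000002000001]
/-- data -/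
def y3 : ℕ := nat_lit 0xdfdf7ed2d360812cd6e11a1954f7787ab2089af27a9f9278786a947ef5ebe00d8e9e76586d6b6a79f8fd79fd1179fefc7cd83d7cd183000c5415f0917dbef67dbef17db8170006ed
/-- data -/
def r3 : ℕ := nat_lit 0x9ab67669f304e0fccac02737e4613579f4a52bf9ef5028e2e8a9e80400ac2cf3f93d70e95088470401650401880120250400090400c80000215085907db46e7db28f00000500002d

/-- an element of order four -/
noncomputable def rr : Co1 := xx 1 * xx 2 * xx 4 * xx 1 * xx 1 * xx 3

theorem mt_rr : mt rr = r3 := by simp only [rr, xx, mt_mul, mt_al vB]; decide +kernel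

theorem mt_y3 : mt (rr * xx 1 * rr⁻¹) = y3 := by
  rw [show rr⁻¹ = rr * (rr * rr) from inv_eq_of_mul_eq_one_right (mt_inj (by
    simp only [mt_mul, mt_rr, mt_one]; decide +kernel))]
  simp only [mt_mul, mt_rr, mt3]; decide +kernel

theorem c16 : 16 ≤ Nat.card (C1[rr * xx 1 * rr⁻¹] ⊓ (Q1 ⊓ C1[xx 1]) : Subgroup Co1) :=
  card_ge (L := q16) (by decide +kernel) fun k hk => by
    have := (lall_iff _ _).1 (by decide +kernel :
      lall q16 (fun k => band (tQ.has k) (band (cmm k y3) (cmm k a3))) = true) k hk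
    simp only [band_eq, Bool.and_eq_true] at this
    obtain ⟨g, a, rfl⟩ := Q1_has this.1
    exact ⟨g, ⟨mem_cent1.2 (cmm_iff.1 (mt_y3 ▸ this.2.1)), a, mem_cent1.2 (cmm_iff.1 (mt3 ▸ this.2.2))⟩, rfl⟩

variable {G : Type*} [Group G] [Finite G] {K M : Subgroup (Co1 × G)} {z y : G}

theorem ker3 (h : RH z0 s0 z K M) (hy : (xx 1, y) ∈ K) :
    ∀ p ∈ GY K M (xx 1) y, (p.1 = 1 → p.2 ∈ zpowers y) ∧ (p.2 = 1 → p.1 ∈ zpowers (xx 1)) :=
  ker6 (gz.symm ▸ h) dsc3 hy (ord3.symm ▸ by decide)

theorem suz3 (h : RH z0 s0 z K M) (hy : (xx 1, y) ∈ K) : y ∈ ⁅C1[y], C1[y]⁆ ∧ ∃ π : C1[y] →* Suz, Qt y π :=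
  three (r := rr) (gz.symm ▸ h) dsc3 hy ord3 (mem_cent1.2 (cmm_iff.1 (by rw [mt_rr, mt_z0]; decide +kernel)))
    (cmm_iff.1 (by rw [mt_y3, mt3]; decide +kernel)) (by
      rw [mul_inv_eq_iff_eq_mul, eq_inv_mul_iff_mul_eq]
      exact mt_inj (by rw [mt_mul, mt_mul, mt_y3, mt_rr, mt3]; decide +kernel)) c16

theorem pull (h : KZ K (z0, z)) {Q Y : Subgroup C1[z]} (hQ : ∀ p ∈ K, p.1 ∈ Q1 ↔ p.2 ∈ Q.map (C1[z]).subtype)
    {p n : ℕ} (hp : p.Prime) (hY : Nat.card Y = p) (hn : ∀ u ∈ Y, n ≤ Nat.card (C1[u] ⊓ Q : Subgroup C1[z]))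
    {a : Co1} (o : orderOf a = p) (cls : ∀ x ∈ C1[z0], orderOf x = p →
      n ≤ Nat.card (C1[x] ⊓ Q1 : Subgroup Co1) → ∃ k ∈ C1[z0], k * x * k⁻¹ ∈ zpowers a) :
    ∃ y k, (a, y) ∈ K ∧ Y.map (C1[z]).subtype = zpowers (MulAut.conj k y) := by
  have := Fact.mk hp
  obtain ⟨⟨u, hu⟩, o1⟩ := exists_prime_orderOf_dvd_card' (G := Y) p (hY ▸ dvd_rfl)
  rw [Subgroup.orderOf_mk, ← Subgroup.orderOf_coe] at o1
  obtain ⟨x, hx⟩ := h.snd u u.2
  have o2 : orderOf x = p := (h.ord hx :).symm.trans o1
  obtain ⟨k, a1, a2⟩ := cls x (h.c1 hx) o2 ((hn u hu).trans (le_trans (by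
    rw [← card_map_of_injective (subtype_injective _)]
    refine card_le_of_le ?_
    rintro _ ⟨v, b, rfl⟩
    exact ⟨mem_cent1.2 (congrArg Subtype.val (mem_cent1.1 b.1)), v, b.2, rfl⟩)
      (card_cent_le h hQ (map_subtype_le _) hx)))
  obtain ⟨κ, b⟩ := h.fst k a1
  obtain ⟨i, c⟩ := mem_zp_of_prime (o ▸ hp) a2 fun e => by
    rw [conj_eq_one_iff.1 e, orderOf_one] at o2; exact hp.one_lt.ne o2
  have d := zpow_mem (mul_mem (mul_mem b hx) (inv_mem b)) i
  have d' : (a, (κ * u * κ⁻¹) ^ i) ∈ K := c ▸ d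
  refine ⟨_, κ⁻¹, d', (eq_of_le_of_card_ge (zpowers_le.2 (mem_map.2 ⟨u ^ i, zpow_mem hu i, by rw [conj_zpow]; simp [mul_assoc]⟩)) ?_).symm⟩
  rw [card_map_of_injective (subtype_injective _), hY, Nat.card_zpowers, MulEquiv.orderOf_eq, (h.ord d' :), o]

theorem simpleSuz : IsSimpleGroup Suz ∧ ¬ IsMulCommutative Suz := ⟨(concl6 SZ.lt0).1, (concl6 SZ.lt0).2.1⟩

theorem main81 {Q X : Subgroup C1[z]} (h : RH z0 s0 z K M)
    (hQ : ∀ p ∈ K, p.1 ∈ Q1 ↔ p.2 ∈ Q.map (C1[z]).subtype) (hc : Nat.card Q = 2 ^ 9) (hX : Nat.card X = 3)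
    (h8 : Nat.card (⁅Q, X⁆ : Subgroup C1[z]) = 8)
    [((X.map (C1[z]).subtype).subgroupOf C[X.map (C1[z]).subtype]).Normal] :
    IsQuasisimple C[X.map (C1[z]).subtype] ∧
      IsoSuz (C[X.map (C1[z]).subtype] ⧸ (X.map (C1[z]).subtype).subgroupOf C[X.map (C1[z]).subtype]) := by
  obtain ⟨y, k, a, e⟩ := pull h.kz hQ Nat.prime_three hX (n := 64) (fun u hu => by
    have := card_le_comm (Q := Q) hu
    rw [hc, h8] at this
    omega) ord3 fun _ => cls3
  obtain ⟨b, π, c⟩ := suz3 h a
  have := simpleSuz.1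
  exact c.stmt (MulAut.conj k) simpleSuz.2 b e

end Cfsg.Agent.CX
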