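import Cfsg.Agent.CX.J5
import Cfsg.Agent.CX.Abs

/-! # Centralizers of elements of order five in groups of Conway type: abstract part -/

set_option autoImplicit false

namespace Cfsg.Agent.CX

open Cfsg Cfsg.Spor Cfsg.Agent.GT Cfsg.Agent.TT Cfsg.Agent.XL Cfsg.Agent.M24 Subgroup
open scoped commutatorElement

variable {X G : Type*} [Group X] [Group G] {K M : Subgroup (X × G)} {R A0 : Subgroup X}
  {z0 g0 x x' u0 t t' f : X} {z u : G}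

/-- the facts about the model -/
structure Mod5 (R A0 : Subgroup X) (z0 g0 x x' u0 t t' f : X) : Prop where
  d : Dsc R z0 g0 u0 2 60
  o3 : (orderOf x).Prime
  o5 : orderOf u0 = 5
  az : A0 ≤ C1[z0]
  ag : A0 ≤ C1[g0]
  ax : x ∈ A0
  ax' : x' ∈ A0
  au : u0 ∈ A0
  n1 : ¬ Commute x' x
  n2 : ¬ Commute x u0
  gn : g0 ∈ N[VV z0 (g0 * z0 * g0⁻¹)]
  f1 : ∀ c ∈ C1[z0] ⊓ C1[u0], ∃ n : ℤ, u0 ^ n * c ∈ C[A0]
  f2 : ∀ c ∈ C1[z0], c ∈ C[C1[z0] ⊓ C[A0]] → Commute c g0 → c ∈ A0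
  mt : t ∈ C1[z0] ⊓ C[A0] ⊔ zpowers g0
  mt' : t' ∈ C1[z0] ⊓ C[A0] ⊔ zpowers g0
  mf : f ∈ C1[z0] ⊓ C[A0] ⊔ zpowers g0
  tt : t * t = 1
  t1 : t ≠ 1
  tt' : t' * t' = 1
  t1' : t' ≠ 1
  ne : t' ≠ t
  c1 : Commute t' t
  c2 : Commute f t
  c3 : Commute f t'
  f5 : f ^ 5 = 1
  fn : f ≠ 1

theorem eq_one_of_zp [Finite X] {a b c : X} (hp : (orderOf a).Prime) (hc : c ∈ zpowers a) (n : ¬ Commute b a)
    (e : Commute b c) : c = 1 := by_contra fun o => n (comm_zp e (mem_zp_of_prime hp hc o))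

theorem five [Finite X] [Finite G] (h : RH z0 (g0 * z0 * g0⁻¹) z K M) (m : Mod5 R A0 z0 g0 x x' u0 t t' f)
    (ker : ∀ y, (x, y) ∈ K → ∀ p ∈ GY K M x y, (p.1 = 1 → p.2 ∈ zpowers y) ∧ (p.2 = 1 → p.1 ∈ zpowers x))
    (hu : (u0, u) ∈ K) : Nonempty (layerOf C1[u] ≃* J2) ∧ Nonempty (C[layerOf C1[u]] ≃* A0) := by
  have k := h.kz
  set A := K ⊓ A0.comap (MonoidHom.fst X G)
  set D := K ⊓ C[A] ⊔ M ⊓ C[A]
  have DA : D ≤ C[A] := sup_le inf_le_right inf_le_right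
  have lA : ∀ a ∈ A0, ∃ b, (a, b) ∈ A := fun a ha => let ⟨b, c⟩ := k.fst a (m.az ha); ⟨b, c, ha⟩
  have s0 : g0 * z0 * g0⁻¹ ∈ C1[z0] := m.d.es.le_cent1 m.d.sQ
  have zA : z0 ∈ C[A0] := mem_cent_iff_le_cent1.2 m.az
  have gA : g0 ∈ C[A0] := mem_cent_iff_le_cent1.2 m.ag
  have sA : g0 * z0 * g0⁻¹ ∈ C[A0] := mul_mem (mul_mem gA zA) (inv_mem gA)
  have KD : ∀ p ∈ K, p.1 ∈ C[A0] → p ∈ D := fun p a b =>
    mem_sup_left ⟨a, fun q hq => k.gr.comm hq.1 a (b _ hq.2)⟩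
  obtain ⟨γ, hγ⟩ := h.nf g0 m.gn
  have gD : (g0, γ) ∈ D := mem_sup_right ⟨hγ, fun q hq => h.gn.comm (h.mem hq.1 (cent_le_norm_VV
    ⟨m.az hq.2, mem_cent_iff_le_cent1.1 sA hq.2⟩)) hγ (gA _ hq.2)⟩
  obtain ⟨y, hy⟩ := lA x m.ax
  obtain ⟨y', hy'⟩ := lA x' m.ax'
  have uA : (u0, u) ∈ A := ⟨hu, m.au⟩
  have cp : ∀ q ∈ A, ∀ p ∈ D, p ∈ C1[q.1].prod C1[q.2] := fun q a p b =>
    ⟨mem_cent1.2 (congrArg Prod.fst (DA b q a).symm), mem_cent1.2 (congrArg Prod.snd (DA b q a).symm)⟩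
  have DY : D ≤ GY K M x y := sup_le (fun p a => mem_sup_left ⟨a.1, cp _ hy p (mem_sup_left a)⟩)
    fun p a => mem_sup_right ⟨a.1, cp _ hy p (mem_sup_right a)⟩
  have gr : Gr D := k.gr_of_ker hy.1 m.o3 (fun p a => (ker y hy.1 p (DY a)).1) inf_le_left
    (DA.trans (cent_le_norm _)) hy' m.n1
  have gr' : ∀ p ∈ D, p.2 = 1 → p = 1 := fun p a e => gr p a (eq_one_of_zp m.o3 ((ker y hy.1 p (DY a)).2 e) m.n1
    (congrArg Prod.fst (DA a _ hy')))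
  have o5 : orderOf u = 5 := (k.ord hu :).trans m.o5
  have h0 := exists_Qt (y := u0) (m.o5 ▸ by decide)
  have h1 := exists_Qt (y := u) (o5 ▸ by decide)
  generalize QuotientGroup.mk' ((zpowers u0).subgroupOf C1[u0]) = π0 at h0
  generalize QuotientGroup.mk' ((zpowers u).subgroupOf C1[u]) = π at h1
  obtain ⟨a, rfl, r⟩ := h.desc' m.d hu h0 h1
  have lt := RH.lt r (m.d.lt h0) (mem_qq.2 ⟨⟨g0, m.d.gy⟩, ⟨γ, (cp _ uA _ gD).2⟩, hγ, rfl⟩)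
  let θ : D →* _ := π.comp (((MonoidHom.snd X G).comp D.subtype).codRestrict C1[u] fun p => (cp _ uA _ p.2).2)
  have i1 : ∀ p q : D, (p : X × G).1 = (q : X × G).1 → p = q := fun p q e => Subtype.ext (gr.ext p.2 q.2 e)
  have i3 : ∀ p q : D, Commute (p : X × G).1 (q : X × G).1 → Commute (θ p) (θ q) := fun p q e =>
    Commute.map (i1 (p * q) (q * p) e) θ
  have i2 : Function.Injective θ := (injective_iff_map_eq_one _).2 fun p e => by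
    obtain ⟨n, b⟩ := h1.one.1 e
    have c := k.comm' hy.1 (zpow_mem hu n) (by
      rw [show ((u0, u) ^ n).2 = (p : X × G).2 from b]; exact congrArg Prod.snd (DA p.2 _ hy))
    exact Subtype.ext (gr' _ p.2 (b.symm.trans (congrArg Prod.snd (k.gr _ (zpow_mem hu n)
      (eq_one_of_zp (m.o5 ▸ by norm_num) ⟨n, rfl⟩ m.n2 (congrArg Prod.fst c.eq))))))
  have lD : C1[z0] ⊓ C[A0] ⊔ zpowers g0 ≤ D.map (MonoidHom.fst X G) := sup_le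
    (fun c hc => let ⟨_, b⟩ := k.fst c hc.1; ⟨_, KD _ b hc.2, rfl⟩) (zpowers_le.2 ⟨_, gD, rfl⟩)
  obtain ⟨p1, a1, rfl⟩ := lD m.mt
  obtain ⟨p2, a2, rfl⟩ := lD m.mt'
  obtain ⟨p3, a3, rfl⟩ := lD m.mf
  have b1 : θ ⟨p1, a1⟩ * θ ⟨p1, a1⟩ = 1 := by rw [← map_mul, i1 (⟨p1, a1⟩ * ⟨p1, a1⟩) 1 m.tt, map_one]
  have b2 : θ ⟨p1, a1⟩ ≠ 1 := fun e => m.t1 (congrArg (·.1.1) (i2 (e.trans (map_one θ).symm)))
  have nc : ¬ IsConj (θ ⟨p1, a1⟩) (π a) := nc5 lt (t' := θ ⟨p2, a2⟩) (f := θ ⟨p3, a3⟩)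
    (by rw [← map_mul, i1 (⟨p2, a2⟩ * ⟨p2, a2⟩) 1 m.tt', map_one])
    (fun e => m.t1' (congrArg (·.1.1) (i2 (e.trans (map_one θ).symm)))) (fun e => m.ne (congrArg (·.1.1) (i2 e)))
    (i3 _ _ m.c1) (i3 _ _ m.c2) (i3 _ _ m.c3)
    (by rw [← map_pow, i1 (⟨p3, a3⟩ ^ 5) 1 m.f5, map_one])
    fun e => m.fn (congrArg (·.1.1) (i2 (e.trans (map_one θ).symm)))
  have top : θ.range = ⊤ := top5 lt (fun s hs => by
    rw [h1.cent (Subtype.ext (congrArg Prod.snd (k.gr _ (mul_mem k.mem k.mem) m.d.es.zz)))] at hs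
    obtain ⟨d, b, c, rfl⟩ := mem_im.1 hs
    obtain ⟨e, b1⟩ := k.snd d c.1
    obtain ⟨n, b2⟩ := m.f1 e ⟨k.c1 b1, mem_cent1.2 (congrArg Prod.fst (k.comm' b1 hu (mem_cent1.1 b)).eq)⟩
    refine ⟨⟨_, KD _ (mul_mem (zpow_mem hu n) b1) b2⟩, ?_⟩
    change π (⟨u, mem_cent1.2 rfl⟩ ^ n * ⟨d, b⟩) = _
    rw [map_mul, map_zpow, h1.one.2 (mem_zpowers u), one_zpow, one_mul]) ⟨⟨_, gD⟩, rfl⟩ ⟨_, rfl⟩ b1 b2 nc
  obtain ⟨j⟩ := J8.isoJ2 lt b1 b2 nc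
  have e1 : D.map (MonoidHom.snd X G) ≃* J2 := (MulEquiv.ofBijective ((MonoidHom.snd X G).subgroupMap D)
    ⟨(injective_iff_map_eq_one _).2 fun p e => Subtype.ext (gr' _ p.2 (congrArg Subtype.val e)),
      MonoidHom.subgroupMap_surjective _ _⟩).symm.trans
    ((MulEquiv.ofBijective θ ⟨i2, MonoidHom.range_eq_top.1 top⟩).trans j.symm)
  have := J8.simpleJ2
  rw [layer_eq e1 (fun c => by
      obtain ⟨v, -, w, -, b⟩ := lt.nonab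
      exact b (j.symm.injective (by rw [map_mul, map_mul, c.is_comm.comm])))
    (le_antisymm (fun c hc => by
      obtain ⟨p, b⟩ := MonoidHom.range_eq_top.1 top (π ⟨c, hc⟩)
      rw [← mul_inv_cancel_left (p : X × G).2 c]
      exact mul_mem (mem_sup_left ⟨_, p.2, rfl⟩) (mem_sup_right (h1.one (a := (⟨_, (cp _ uA _ p.2).2⟩ : C1[u])⁻¹ *
        ⟨c, hc⟩).1 (by rw [map_mul, map_inv, ← b]; exact inv_mul_cancel _))))
      (sup_le (by rintro _ ⟨p, b, rfl⟩; exact (cp _ uA _ b).2) (zpowers_le.2 (mem_cent1.2 rfl))))]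
  refine ⟨⟨e1⟩, ⟨(MulEquiv.subgroupCongr (le_antisymm (fun d hd => ?_) ?_)).trans
    ((MulEquiv.ofBijective ((MonoidHom.snd X G).subgroupMap A)
      ⟨(injective_iff_map_eq_one _).2 fun p e => Subtype.ext (k.gr' _ p.2.1 (congrArg Subtype.val e)),
        MonoidHom.subgroupMap_surjective _ _⟩).symm.trans
    ((MulEquiv.ofBijective ((MonoidHom.fst X G).subgroupMap A)
      ⟨(injective_iff_map_eq_one _).2 fun p e => Subtype.ext (k.gr _ p.2.1 (congrArg Subtype.val e)),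
        MonoidHom.subgroupMap_surjective _ _⟩).trans (MulEquiv.subgroupCongr (le_antisymm
      (by rintro _ ⟨p, b, rfl⟩; exact b.2) fun c hc => let ⟨_, b⟩ := lA c hc; ⟨_, b, rfl⟩))))⟩⟩
  · obtain ⟨c, b⟩ := k.snd d (cent_le_cent1 (mem_map.2 ⟨_, KD _ k.mem zA, rfl⟩) hd)
    have c1 : c ∈ C[C1[z0] ⊓ C[A0]] := fun e he => by
      obtain ⟨d', b'⟩ := k.fst e he.1
      exact congrArg Prod.fst (k.comm' b' b (hd _ ⟨_, KD _ b' he.2, rfl⟩)).eq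
    have c2 := h.mem b (cent_le_norm_VV ⟨k.c1 b, cent_le_cent1 (mem_inf.2 ⟨s0, sA⟩) c1⟩)
    refine ⟨_, ⟨b, m.f2 c (k.c1 b) c1 (commutatorElement_eq_one_iff_commute.1 (congrArg Prod.fst
      (RH.gr' h (mem_cent1.1 s0) ⁅(c, d), (g0, γ)⁆ (mul_mem (mul_mem (mul_mem c2 hγ) (inv_mem c2)) (inv_mem hγ))
        (commutatorElement_eq_one_iff_commute.2 (hd _ ⟨_, gD, rfl⟩).symm))))⟩, rfl⟩
  · rintro _ ⟨q, b, rfl⟩ _ ⟨p, c, rfl⟩
    exact congrArg Prod.snd (DA c q b).symm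

end Cfsg.Agent.CX
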