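import Cfsg.Agent.CX.Cls

/-! # Bounds for subgroups of the centralizer of the involution in `Co₁` -/

set_option autoImplicit false

namespace Cfsg.Agent.CX

open Cfsg Cfsg.Spor Cfsg.Agent.GT Cfsg.Agent.TT Cfsg.Agent.XL Cfsg.Agent.M24 Cfsg.Agent.Leech
  Cfsg.Agent.CoS Cfsg.Agent.CW Subgroup MulAction

variable {g : Co1} {x : Lt} {D : Subgroup Co1}

theorem acV : AC mt (Set.univ : Set Lt) cdx apm :=
  ⟨fun _ _ _ => trivial, cdx_inj.injOn, fun g x _ => apm_mt g x⟩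

theorem sg_smul1 (hg : g ∈ C1[z0]) (x : Lt) : sg (cdx (g • x)) = sg (cdx x) := by
  obtain ⟨g, rfl⟩ := pj_surj g
  exact sg_smul (mem_C0.1 hg) x

theorem t4_smul (hg : g ∈ C1[z0]) (h : t4.has (cdx x) = true) : t4.has (cdx (g • x)) = true := by
  obtain ⟨g, rfl⟩ := pj_surj g
  exact orb_iff.1 (mem_orbit_of_mem_orbit (⟨g, mem_C0.1 hg⟩ : C1[zz]) (orb_iff.2 h))

theorem Q1_fix (hg : g ∈ Q1) (h : t4.has (cdx x) = true) : g • x = x := by
  obtain ⟨g, a, rfl⟩ := hg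
  obtain ⟨v, hv, rfl⟩ := orb_fix (orb_iff.2 h)
  rw [pj_smul, smul_cl, Q0_fix a hv]

theorem mem_Q1_of_fix {fs : List ℕ} (h : ∀ f ∈ fs, ∃ y, cdx y = f ∧ g • y = y)
    (h3 : (nall 8 fun i => spanHas fs (col mF i)) = true) : g ∈ Q1 := by
  obtain ⟨g, rfl⟩ := pj_surj g
  refine (mem_of_fix_W (g := g) fun v hv => fix_of_cols (d := 8) (F := mF) (fun i hi x hx => ?_) (fix_W hv)).elim
    (fun e => ⟨g, e, rfl⟩) fun e => ⟨_, e, by rw [map_mul, pj_ng, one_mul]⟩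
  obtain ⟨y, e, hy⟩ := spanHas_ind (P := fun f => ∃ y, cdx y = f ∧ g • y = y)
    ⟨0, cdx_zero, smul_zero _⟩ (by
      rintro _ _ ⟨y, rfl, hy⟩ ⟨z, rfl, hz⟩
      exact ⟨y + z, cdx_add _ _, by rw [smul_add, hy, hz]⟩) h ((nall_iff _ _).1 h3 i hi)
  rwa [cdx_inj (hx.trans e.symm)]

theorem card_ub (hD : D ≤ C1[z0]) {As fs : List ℕ} (hA : ∀ A ∈ As, ∃ c : Co1, mt c = A ∧ D ≤ C1[c]) {y n : ℕ}
    (h : band (band (t4.has y) (Nat.beq (t4.count (cnd As [] y)) n))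
      (band (fsChk As [y] fs) (nall 8 fun i => spanHas fs (col mF i))) = true) :
    Nat.card D ≤ Nat.card (D ⊓ Q1 : Subgroup Co1) * n := by
  simp only [band_eq, Bool.and_eq_true, Nat.beq_eq] at h
  obtain ⟨⟨h1, rfl⟩, h2, h3⟩ := h
  obtain ⟨x, rfl⟩ := key_ex h1
  rw [← card_inf_stab D x, T.count_eq, ← acV.ncard_keys ((T.srt_nodup t4_srt).filter _) fun k hk =>
    ⟨_, trivial, cdx_unx (T.srt_bound t4_srt k (List.mem_of_mem_filter hk)).2⟩]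
  refine Nat.mul_le_mul (card_le_of_le fun g hg => ⟨hg.1, mem_Q1_of_fix (fun f hf => ?_) h3⟩)
    (Set.ncard_le_ncard ?_ (acV.finite_keys _))
  · simp only [fsChk, lall_iff, lany_iff, band_eq, Bool.and_eq_true, Nat.beq_eq, List.mem_singleton] at h2
    obtain ⟨_, rfl, -, A, a, rfl⟩ := h2 f hf
    obtain ⟨c, rfl, b⟩ := hA A a
    exact ⟨c • x, (apm_mt _ _).symm, by rw [← mul_smul, mem_cent1.1 (b hg.1), mul_smul, hg.2]⟩
  · rintro _ ⟨⟨g, hg⟩, rfl⟩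
    refine ⟨trivial, List.mem_filter.2 ⟨T.has_sound (t4_smul (hD hg) h1), ?_⟩⟩
    simp only [cnd, band_eq, Bool.and_eq_true, lall_iff, beq_iff_eq]
    refine ⟨by simp, fun B hB => ?_⟩
    obtain ⟨c, rfl, b⟩ := hA B hB
    have := sg_smul1 (hD hg) (x + c • x)
    rwa [co1_add, ← mul_smul, mem_cent1.1 (b hg), mul_smul, cdx_add, cdx_add, ← apm_mt c, ← apm_mt c] at this

theorem card_lb {l : List ℕ} (hv : Valid mt l) (hl : gen mt l ≤ D) {y n : ℕ} {t : T}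
    (h : band (band (t4.has y) (t.srt 0 (2 ^ 24))) (band (connChk apm l y t) (Nat.beq t.size n)) = true) :
    Nat.card (D ⊓ Q1 : Subgroup Co1) * n ≤ Nat.card D := by
  simp only [band_eq, Bool.and_eq_true, Nat.beq_eq] at h
  obtain ⟨⟨h1, h2⟩, h3, rfl⟩ := h
  obtain ⟨x, rfl⟩ := key_ex h1
  rw [← card_inf_stab D x, T.size_eq, ← acV.ncard_keys (T.srt_nodup h2) fun k hk =>
    ⟨_, trivial, cdx_unx (T.srt_bound h2 k hk).2⟩]
  refine Nat.mul_le_mul (card_le_of_le fun g hg => ⟨hg.1, Q1_fix hg.2 h1⟩) (Set.ncard_le_ncard (fun v hv' => ?_)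
    (Set.finite_range _))
  obtain ⟨g, a, b⟩ := acV.conn_sound hv (x₀ := x) trivial h3 _ hv'.2
  exact ⟨⟨g, hl a⟩, cdx_inj b⟩

end Cfsg.Agent.CX
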