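import Cfsg.Agent.CW.Base
import Cfsg.Agent.XL.Cen3

/-! # Elements of prime order with a large centralizer in the extraspecial group -/

set_option autoImplicit false

namespace Cfsg.Agent.CX

open Cfsg Cfsg.Spor Cfsg.Agent.GT Cfsg.Agent.TT Cfsg.Agent.XL Cfsg.Agent.M24 Cfsg.Agent.Leech
  Cfsg.Agent.CoS Cfsg.Agent.CW Subgroup MulAction

theorem acM : AC mt (Set.univ : Set Co1) mt mulf :=
  ⟨fun _ _ _ => trivial, mt_inj.injOn, fun g x _ => (mt_mul g x).symm⟩

theorem enumM {l : List ℕ} (hv : Valid mt l) {t : T} (h : orbChk mulf l onem (2 ^ 576) t = true) :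
    Nat.card (gen mt l) = t.size ∧ ∀ g ∈ gen mt l, mt g ∈ t.keys := by
  obtain ⟨a, b, -⟩ := acM.orb_sound hv (x₀ := 1) trivial (mt_one.symm ▸ h)
  have e : orbit (gen mt l) (1 : Co1) = gen mt l :=
    Set.ext fun x => ⟨by rintro ⟨g, rfl⟩; simp [Subgroup.smul_def], fun hx => ⟨⟨x, hx⟩, mul_one x⟩⟩
  rw [e] at a b
  exact ⟨b, fun g hg => (a.le hg).2⟩

theorem gen_C0 {l : List ℕ} (h : lall l (fun s => cmm s mZ) = true) : gen mt l ≤ C1[z0] :=
  gen_le fun _ hg => mem_cent1.2 (cmm_iff.1 (mt_z0 ▸ (lall_iff _ _).1 h _ hg))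

theorem lQ_inv (i : ℕ) : ∃ q ∈ Q1, q⁻¹ = q ∧ mt q = lget lQ onem i := by
  rcases lget_mem lQ onem i with h | h
  · obtain ⟨q, e⟩ := valid_lQ _ h
    have e' : mt (pj q) = lget lQ onem i := (mt_pj _).trans e
    refine ⟨_, ⟨q, q.2, rfl⟩, inv_eq_of_mul_eq_one_left (mt_inj ?_), e'⟩
    rw [mt_mul, e', mt_one]
    exact Nat.eq_of_beq_eq_true ((lall_iff _ _).1
      (by decide +kernel : lall lQ (fun s => Nat.beq (mulf s s) onem) = true) _ h)
  · exact ⟨1, one_mem _, inv_one, mt_one.trans h.symm⟩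

theorem pw_mt {a : Co1} {A : ℕ} (hA : mt a = A) {As : List ℕ} (h : pwChk A As = true) :
    ∀ x ∈ As, ∃ c ∈ zpowers a, mt c = x := fun x hx => by
  obtain ⟨a, rfl⟩ := pj_surj a
  obtain ⟨c, b, rfl⟩ := pw_sound ((mt_pj a).symm.trans hA) h x hx
  exact ⟨pj c, MonoidHom.map_zpowers pj a ▸ mem_map_of_mem pj b, mt_pj c⟩

/-- add the conjugates by an involution -/
noncomputable def dbl (q : ℕ) (L : List ℕ) (k : List ℕ → Bool) : Bool :=
  List.rec (motive := fun _ => List ℕ → Bool) k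
    (fun x _ ih acc => force (mulf q x) fun y => force (mulf y q) fun y' => ih (y' :: acc)) L L

/-- conjugates by subproducts of generators -/
noncomputable def cjs (qs : List ℕ) (k : List ℕ → Bool) : List ℕ → Bool :=
  List.rec (motive := fun _ => List ℕ → Bool) k (fun i _ ih L => force (lget lQ onem i) fun q => dbl q L ih) qs

/-- no duplicates -/
noncomputable def ndp (L : List ℕ) : Bool :=
  List.rec (motive := fun _ => Bool) true (fun x r ih => band (lall r fun y => !Nat.beq x y) ih) L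

theorem ndp_sound : ∀ {L : List ℕ}, ndp L = true → L.Nodup
  | [], _ => List.nodup_nil
  | x :: r, h => by
    have h' : band (lall r fun y => !Nat.beq x y) (ndp r) = true := h
    simp only [band_eq, Bool.and_eq_true, lall_iff, Bool.not_eq_true', ← Bool.not_eq_true, Nat.beq_eq] at h'
    exact List.nodup_cons.2 ⟨fun a => h'.1 x a rfl, ndp_sound h'.2⟩

theorem dbl_sound {P : ℕ → Prop} {q : ℕ} (hq : ∀ x, P x → P (mulf (mulf q x) q)) {k : List ℕ → Bool}
    {L : List ℕ} (hL : ∀ x ∈ L, P x) (h : dbl q L k = true) : ∃ L', (∀ x ∈ L', P x) ∧ k L' = true := by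
  have : ∀ L acc : List ℕ, (∀ x ∈ L, P x) → (∀ x ∈ acc, P x) → List.rec (motive := fun _ => List ℕ → Bool) k
      (fun x _ ih acc => force (mulf q x) fun y => force (mulf y q) fun y' => ih (y' :: acc)) L acc = true →
      ∃ L', (∀ x ∈ L', P x) ∧ k L' = true := fun L => by
    induction L with
    | nil => exact fun acc _ a b => ⟨acc, a, b⟩
    | cons x r ih =>
      intro acc a b c
      simp only [force_eq] at c ih
      exact ih _ (fun y hy => a y (List.mem_cons_of_mem _ hy))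
        (List.forall_mem_cons.2 ⟨hq _ (a x List.mem_cons_self), b⟩) c
  exact this L L hL hL h

theorem cjs_sound {w : Co1} {k : List ℕ → Bool} {qs L : List ℕ}
    (hL : ∀ x ∈ L, ∃ q ∈ Q1, mt (q * w * q⁻¹) = x) (h : cjs qs k L = true) :
    ∃ L', (∀ x ∈ L', ∃ q ∈ Q1, mt (q * w * q⁻¹) = x) ∧ k L' = true := by
  induction qs generalizing L with
  | nil => exact ⟨L, hL, h⟩
  | cons i r ih =>
    have h' : (force (lget lQ onem i) fun q => dbl q L (cjs r k)) = true := h
    obtain ⟨q, a, b, c⟩ := lQ_inv i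
    rw [force_eq, ← c] at h'
    obtain ⟨L', d, e⟩ := dbl_sound (P := fun x => ∃ q ∈ Q1, mt (q * w * q⁻¹) = x) (by
      rintro _ ⟨u, hu, rfl⟩
      exact ⟨q * u, mul_mem a hu, by simp only [← mt_mul, mul_inv_rev, b, mul_assoc]⟩) hL h'
    exact ih d e

theorem card_of_list {L : List ℕ} {H : Subgroup Co1} {x : Co1} (hs : L.Nodup)
    (h : ∀ k ∈ L, ∃ g ∈ H, mt (g * x * g⁻¹) = k) :
    Nat.card (C1[x] ⊓ H : Subgroup Co1) * L.length ≤ Nat.card H := by
  rw [← card_inf_mul_relIndex C1[x] H, ← ncard_cj, ← List.toFinset_card_of_nodup hs,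
    ← Set.ncard_coe_finset, ← Set.ncard_image_of_injective _ mt_inj]
  refine Nat.mul_le_mul_left _ (Set.ncard_le_ncard (fun k hk => ?_) ((Set.toFinite _).image _))
  obtain ⟨g, hg, e⟩ := h k (by simpa using hk)
  exact ⟨_, ⟨g, hg, rfl⟩, e⟩

/-- the test for one element -/
noncomputable def clsF (cs pw : List ℕ) (n k a : ℕ) : Bool :=
  force (Nat.land (Nat.shiftRight a (nat_lit 4)) (nat_lit 0x3fffffff)) fun c => bif' (Nat.beq c (nat_lit 0))
    (lany cs fun s => force (mulf s k) fun y => lany pw fun X => Nat.beq y (mulf X s))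
    (cjs (dw c) (fun L => band (ndp L) (Nat.ble n L.length)) [k])

theorem classify {a : Co1} {l cs pw : List ℕ} {t : T} {p e m n : ℕ} (hp : p.Prime) (hv : Valid mt l)
    (hc : Valid mt cs) (hw : ∀ X ∈ pw, ∃ c ∈ zpowers a, mt c = X) (h1 : 89181388800 = p ^ e * m) (h2 : ¬ p ∣ m)
    (h3 : band (band (lall l fun s => cmm s mZ) (lall cs fun s => cmm s mZ))
      (band (orbChk mulf l onem (2 ^ 576) t) (Nat.beq t.size (p ^ e))) = true)
    (h4 : (t.all fun k a _ => clsF cs pw n k a) = true) {x : Co1} (hx : x ∈ C1[z0]) (o : orderOf x = p)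
    (h : 512 < Nat.card (C1[x] ⊓ Q1 : Subgroup Co1) * n) : ∃ k ∈ C1[z0], k * x * k⁻¹ ∈ zpowers a := by
  simp only [band_eq, Bool.and_eq_true, Nat.beq_eq] at h3
  obtain ⟨⟨b1, b2⟩, b3, b4⟩ := h3
  obtain ⟨c1, c2⟩ := enumM hv b3
  obtain ⟨k, hk, d⟩ := syl_elt (a := 1) hp (syl_card hp (gen_C0 b1) (c1.trans b4) (card_C0.trans h1) h2) hx
    (by rw [pow_one, ← o, pow_orderOf_eq_one])
  obtain ⟨u, v, f⟩ := T.mem_keys.1 (c2 _ d)
  have := (T.all_iff _ _).1 h4 _ u v f
  rw [clsF, force_eq, bif'_eq] at this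
  split_ifs at this
  · simp only [lany_iff, force_eq, Nat.beq_eq] at this
    obtain ⟨s, s1, X, s2, s3⟩ := this
    obtain ⟨s, rfl⟩ := hc s s1
    obtain ⟨c, s4, rfl⟩ := hw X s2
    rw [← mt_mul, ← mt_mul] at s3
    refine ⟨s * k, mul_mem (gen_C0 b2 (mem_gen_of_mem s1)) hk, ?_⟩
    rwa [show s * k * x * (s * k)⁻¹ = s * (k * x * k⁻¹) * s⁻¹ by group, mt_inj s3, mul_inv_cancel_right]
  · obtain ⟨L, s1, s2⟩ := cjs_sound (w := k * x * k⁻¹) (by simpa using ⟨1, one_mem _, by simp⟩) this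
    rw [band_eq, Bool.and_eq_true, Nat.ble_eq] at s2
    have := card_of_list (ndp_sound s2.1) s1
    rw [card_cent_conj (lt0.nQ hk), card_Q1] at this
    exact absurd ((Nat.mul_le_mul_left _ s2.2).trans this) (not_le.2 h)

end Cfsg.Agent.CX
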