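import Cfsg.Agent.CW.Base

/-! # Descent data in `Co₁` from certificates in `Co₀` -/

set_option autoImplicit false

namespace Cfsg.Agent.CX

open Cfsg Cfsg.Spor Cfsg.Agent.GT Cfsg.Agent.TT Cfsg.Agent.XL Cfsg.Agent.M24 Cfsg.Agent.Leech
  Cfsg.Agent.CoS Cfsg.Agent.CW Subgroup

variable {a : Co0}

theorem im_pt (H : Subgroup Co0) : im CoS.pt H = H.map pj :=
  le_antisymm (by rintro _ ⟨x, hx, rfl⟩; exact ⟨x, hx, rfl⟩)
    (by rintro _ ⟨x, hx, rfl⟩; exact ⟨⟨x, trivial⟩, hx, rfl⟩)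

theorem mem_Ca (ha : Odd (orderOf a)) {g : Co0} : pj g ∈ C1[pj a] ↔ g ∈ C1[a] :=
  ⟨fun h => mem_cent1.2 (commute_of_pj ha (mem_cent1.1 h)),
    fun h => mem_cent1.2 (by rw [← map_mul, mem_cent1.1 h, map_mul])⟩

theorem ord_pj (ha : Odd (orderOf a)) : orderOf (pj a) = orderOf a :=
  orderOf_eq_orderOf_iff.2 fun n => ⟨fun h => (pj_eq_one.1 ((map_pow pj a n).trans h)).elim id fun e =>
    eq_one_of_odd ha (npow_mem_zpowers a n) (by rw [e, ← mul_one ng, ng_sq, one_pow]),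
    fun h => by rw [← map_pow, h, map_one]⟩

theorem dsc_of {p : ℕ} (h2 : Odd p) (ha : orderOf a = p) (haz : a ∈ C1[zz]) {w N : ℕ}
    (cK : Nat.card ↥(Q0 ⊓ C1[a]) = 2 ^ (2 * w + 1))
    (cD : Nat.card ↥(C1[a] ⊓ C1[zz]) = p * 2 * (2 ^ (2 * w + 1) * N))
    (hC : ∀ d ∈ C1[a], d ∈ C[Q0 ⊓ C1[a]] → ∃ c ∈ zpowers a, c⁻¹ * d ∈ Q0 ∨ ng * (c⁻¹ * d) ∈ Q0)
    {x : Co1} (hx : pj a = x) (hg : Commute g0 x) (hs : Commute s0 x) :
    Dsc (Q1 ⊓ C1[x]) z0 g0 x w N ∧ orderOf x = p := by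
  subst ha hx
  have o := ord_pj h2
  have e1 : Q1 ⊓ C1[pj a] = (Q0 ⊓ C1[a]).map pj := le_antisymm
    (by rintro _ ⟨⟨k, hk, rfl⟩, h⟩; exact ⟨k, ⟨hk, (mem_Ca h2).1 h⟩, rfl⟩)
    (by rintro _ ⟨k, hk, rfl⟩; exact ⟨⟨k, hk.1, rfl⟩, (mem_Ca h2).2 hk.2⟩)
  have e2 : C1[z0] ⊓ C1[pj a] = (C1[a] ⊓ C1[zz]).map pj := le_antisymm
    (fun c h => by obtain ⟨c, rfl⟩ := pj_surj c; exact ⟨c, ⟨(mem_Ca h2).1 h.2, mem_C0.1 h.1⟩, rfl⟩)
    (by rintro _ ⟨k, hk, rfl⟩; exact ⟨mem_C0.2 hk.2, (mem_Ca h2).2 hk.1⟩)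
  have c1 : Nat.card ↥(Q1 ⊓ C1[pj a]) = 2 ^ (2 * w + 1) := by
    rw [e1, ← im_pt, card_im_of_inf_eq_bot le_top (by rw [kr_pt]; exact inf_center fun h => ng_Q0 h.1), cK]
  have sq : s0 ∈ Q1 ⊓ C1[pj a] := ⟨gz ▸ lt0.sQ, mem_cent1.2 hs⟩
  refine ⟨⟨es_cent_odd lt0.toES (o ▸ h2) (lt0.nQ (mem_C0.2 haz)) sq v4.s1 v4.ne, inf_le_right, mem_cent1.2 hg, c1,
    ?_, fun d hd => mem_normalizer_of_conj fun x hx => mem_inf.2 ⟨conj_mem_of_mem_norm (lt0.nQ hd.1) hx.1,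
      mul_mem (mul_mem hd.2 hx.2) (inv_mem hd.2)⟩, fun d hd e => ?_, gz ▸ sq, lt0.sne⟩, o⟩
  · have := card_eq_card_kr_mul (f := CoS.pt) (H := C1[a] ⊓ C1[zz]) le_top (by
      rw [kr_pt]; exact le_inf (center_le_centralizer _) (center_le_centralizer _))
    rw [cD, kr_pt, card_center, im_pt, ← e2] at this
    rw [c1, o]
    exact Nat.eq_of_mul_eq_mul_left two_pos (this.symm.trans (by ring))
  · obtain ⟨d, rfl⟩ := pj_surj d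
    have d1 := (mem_Ca h2).1 hd.2
    have d2 := mem_C0.1 hd.1
    obtain ⟨c, c1, c2⟩ := hC d d1 fun k hk => by
      have := e _ (e1.ge ⟨k, hk, rfl⟩)
      rw [← map_mul, ← map_mul] at this
      have b := mat_inj hk.1 (conj_Q0 d2 hk.1) (mat_eq.2 (by
        rw [map_mul, map_inv, ← this, map_mul, mul_inv_cancel_right]))
      rw [eq_mul_inv_iff_mul_eq] at b
      exact b
    have c3 : pj c ∈ zpowers (pj a) := MonoidHom.map_zpowers pj a ▸ mem_map_of_mem pj c1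
    rw [← mul_inv_cancel_left (pj c) (pj d)]
    refine mul_mem (mem_sup_right c3) (mem_sup_left (mem_inf.2 ⟨?_, mul_mem (inv_mem
      ((zpowers_le.2 (mem_cent1.2 rfl) : _ ≤ C1[pj a]) c3)) hd.2⟩))
    exact c2.elim (fun h => ⟨_, h, by rw [map_mul, map_inv]⟩) fun h =>
      ⟨_, h, by rw [map_mul, map_mul, map_inv, pj_ng, one_mul]⟩

end Cfsg.Agent.CX
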