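import Cfsg.Agent.J8.Rel
import Cfsg.Agent.XL.Cen3

/-! # Complements on groups of Hall-Janko type -/

set_option autoImplicit false
set_option maxRecDepth 100000

namespace Cfsg.Agent.CX

open Cfsg Cfsg.Spor Cfsg.Agent.GT Cfsg.Agent.TT Cfsg.Agent.TC Cfsg.Agent.XL Cfsg.Agent.M24 Subgroup

section model

open Cfsg.Agent.J8

theorem e5 : enumChk f 15 315 bs Kx tK (fun w _ => bor (bor (!eq (pww w 5) []) (eq w []))
    (band (!cb w [1]) (!cb w [2]))) = true := by decide +kernel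

theorem five0 {a b : X} (ha : a ∈ C1[m 0]) (hb : b ∈ C1[m 0]) (a2 : a * a = 1) (b5 : b ^ 5 = 1)
    (c : Commute b a) : a = 1 ∨ a = m 0 ∨ b = 1 := by
  rcases ((facts (mem_cent1.1 ha)).2.2.2 a2).2 with o | o | ⟨k, hk, o⟩
  exacts [Or.inl o, Or.inr (Or.inl o), by
    obtain ⟨w, -, l, e, p⟩ := md.enum num e5 _ (mul_mem (mul_mem (inv_mem hk) (cK ▸ hb)) (inv_mem (inv_mem hk)))
    have k : ∀ i < 15, a = k * m i * k⁻¹ → cb w [i] = true := fun i hi o => (md.cm_iff num).2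
      ⟨⟨l, by simpa using hi⟩, by
        rw [e, ev1, show m i = k⁻¹ * a * k⁻¹⁻¹ by rw [o]; group]; exact (commute_conj_iff _).2 c⟩
    simp only [bor_eq, band_eq, Bool.or_eq_true, Bool.and_eq_true, Bool.not_eq_true', ← Bool.not_eq_true,
      md.eq_iff num, evl_pww, e, evl] at p
    rcases p with (p | p) | p
    · exact absurd ⟨⟨pww_lt l 5, by simp⟩, by rw [conj_pow, b5]; simp⟩ p
    · exact Or.inr (Or.inr (conj_eq_one_iff.1 p.2))
    · exact (o.elim (fun o => p.1 (k 1 (by norm_num) o)) fun o => p.2 (k 2 (by norm_num) o)).elim]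

end model

variable {X G : Type*} [Group X] [Group G] {K M : Subgroup (X × G)} {Q0 : Subgroup X}
  {Q H L : Subgroup G} {z0 s0 g0 : X} {z g t t' f u : G} {w N : ℕ}

theorem nc5 [Finite G] (h : LT Q z g 2 60) (t2 : t' * t' = 1) (n1 : t' ≠ 1) (n2 : t' ≠ t) (c1 : Commute t' t)
    (c2 : Commute f t) (c3 : Commute f t') (f5 : f ^ 5 = 1) (f1 : f ≠ 1) : ¬ IsConj t z := fun e => by
  obtain ⟨c, rfl⟩ := isConj_iff.1 e
  obtain ⟨K, M, r⟩ := J8.exists_RH h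
  obtain ⟨a, ha⟩ := r.kz.snd (c * t' * c⁻¹) (mem_cent1.2 ((commute_conj_iff c).2 c1))
  obtain ⟨b, hb⟩ := r.kz.snd (c * f * c⁻¹) (mem_cent1.2 ((commute_conj_iff c).2 c2))
  rcases five0 (r.kz.c1 ha) (r.kz.c1 hb) (congrArg Prod.fst (r.kz.gr' _ (mul_mem ha ha) (conj_mul_self c t2)))
    (congrArg Prod.fst (r.kz.gr' _ (pow_mem hb 5) (conj_pow.trans (by rw [f5]; simp))))
    (congrArg Prod.fst (r.kz.comm' hb ha ((commute_conj_iff c).2 c3)).eq) with o | o | o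
  · exact n1 (conj_eq_one_iff.1 (congrArg Prod.snd (r.kz.gr _ ha o)))
  · exact n2 (by simpa using congrArg Prod.snd (r.kz.gr.ext ha r.kz.mem o))
  · exact f1 (conj_eq_one_iff.1 (congrArg Prod.snd (r.kz.gr _ hb o)))

theorem LT.sub (h : LT Q z g w N) (hH : C1[z] ≤ H) (hg : g ∈ H) :
    LT (Q.subgroupOf H) ⟨z, hH (mem_cent1.2 rfl)⟩ ⟨g, hg⟩ w N := by
  have l := h.le_cent1.trans hH
  have c := Nat.card_congr (subgroupOfEquivOfLe l).toEquiv
  have e : C1[(⟨z, hH (mem_cent1.2 rfl)⟩ : H)] = (C1[z]).subgroupOf H := Subgroup.ext fun x => by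
    simp only [mem_subgroupOf, mem_cent1, Subtype.ext_iff, coe_mul]
  refine ⟨⟨h.toES.subgroupOf l, fun x hx => h.cQ fun y hy => congrArg Subtype.val (hx ⟨y, l hy⟩ hy),
    fun x hx => mem_normalizer_iff.2 fun y => mem_normalizer_iff.1 (h.nQ (e.le hx)) y⟩, c.trans h.cQ',
    by rw [e, c, Nat.card_congr (subgroupOfEquivOfLe hH).toEquiv, h.cC], h.sQ,
    fun o => h.sne (congrArg Subtype.val o)⟩

theorem top5 [Finite G] (h : LT Q z g 2 60) (hH : C1[z] ≤ H) (hg : g ∈ H) (ht : t ∈ H) (t2 : t * t = 1) (t1 : t ≠ 1)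
    (n : ¬ IsConj t z) : H = ⊤ := by
  obtain ⟨a⟩ := J8.isoJ2 h t2 t1 n
  obtain ⟨b⟩ := J8.isoJ2 (G := H) (x := ⟨t, ht⟩) (LT.sub h hH hg) (Subtype.ext t2) (fun e => t1 (congrArg Subtype.val e))
    fun e => n (H.subtype.map_isConj e :)
  exact eq_top_of_card_eq _ (Nat.card_congr (b.symm.trans a).toEquiv)

theorem RH.gr' [Finite X] (h : RH z0 s0 z K M) (c : Commute s0 z0) :
    ∀ p ∈ M, p.2 = 1 → p = 1 := fun p hp e => by
  have a : (z0, z) ∈ M := h.mem h.kz.mem (le_normalizer (zVV _ _))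
  have b := h.cp _ (mul_mem (mul_mem hp a) (inv_mem hp)) (((closure_le (K := C1[z0])).2 (by
    rintro _ (rfl | rfl); exacts [mem_cent1.2 rfl, mem_cent1.2 c]) : VV z0 s0 ≤ _)
      (conj_mem_of_mem_norm (h.nn p hp) (zVV z0 s0)))
  exact h.kz.gr' p (h.cp p hp (mem_cent1.2 (commute_iff_conj.2
    (congrArg Prod.fst (h.kz.ext' b h.kz.mem (by simp [e])))))) e

theorem RH.lt [Finite X] [Finite G] (h : RH z0 (g0 * z0 * g0⁻¹) z K M) (l : LT Q0 z0 g0 w N) (hg : (g0, g) ∈ M) :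
    LT ((K ⊓ Q0.comap (MonoidHom.fst X G)).map (MonoidHom.snd X G)) z g w N := by
  have c : Nat.card ((K ⊓ Q0.comap (MonoidHom.fst X G)).map (MonoidHom.snd X G)) = Nat.card Q0 := by
    rw [card_map_of (S := K ⊓ _) fun p a => h.kz.gr' p a.1,
      ← card_map_of (S := K ⊓ _) (φ := MonoidHom.fst X G) fun p a => h.kz.gr p a.1]
    exact congrArg (fun H : Subgroup X => Nat.card H) (le_antisymm (by rintro _ ⟨p, a, rfl⟩; exact a.2)
      fun c hc => let ⟨d, a⟩ := h.kz.fst c (l.le_cent1 hc); ⟨(c, d), ⟨a, hc⟩, rfl⟩)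
  have b := h.cp _ (mul_mem (mul_mem hg (h.mem h.kz.mem (le_normalizer (zVV _ _)))) (inv_mem hg)) (l.le_cent1 l.sQ)
  exact ⟨J8.kz_lq h.kz l.toLQ, c.trans l.cQ', by rw [h.kz.card, c, l.cC], ⟨_, ⟨b, l.sQ⟩, rfl⟩,
    fun e => l.sne (congrArg Prod.fst (h.kz.ext' b h.kz.mem e))⟩

theorem layer_eq {S : Type*} [Group S] [IsSimpleGroup S] (e : L ≃* S) (na : ¬ IsMulCommutative S)
    (h : C1[u] = L ⊔ zpowers u) : layerOf C1[u] = L := by
  have c : zpowers u ≤ C[L ⊔ zpowers u] := by rw [← h]; exact zpowers_le.2 fun x hx => mem_cent1.1 hx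
  refine le_antisymm (layerOf_le_of_forall fun K hK => hK.toQS.le_of_le_sup (h ▸ hK.sn.le) c) (Cmp.le_layerOf
    ⟨qs_iff.2 (qs_of_hom (π := e.toMonoidHom) e.surjective na ?_ ?_), SN.of_norm (h ▸ le_sup_left)
      (h ▸ sup_le le_normalizer (le_norm_of_cent (c.trans (cent_anti le_sup_left))))⟩) <;>
  rw [(MonoidHom.ker_eq_bot_iff _).2 e.injective] <;> exact bot_le

end Cfsg.Agent.CX
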