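import Cfsg.Agent.CX.C5
import Cfsg.Agent.CX.M3
import Cfsg.Agent.CX.Bd
import Cfsg.Agent.CX.Ab5

/-! # The centralizer of an element of order five in a group of Conway type -/

set_option autoImplicit false
set_option maxRecDepth 100000

namespace Cfsg.Agent.CX

open Cfsg Cfsg.Spor Cfsg.Agent.GT Cfsg.Agent.TT Cfsg.Agent.TC Cfsg.Agent.XL Cfsg.Agent.M24 Cfsg.Agent.Leech
  Cfsg.Agent.CoS Cfsg.Agent.CW Subgroup

/-- data -/
def cE : List ℕ := [nat_lit
  0x844f973dfe7f5f948012624177d6437c9e117fb0840429fc02a6820040e17d91007deebf00080200004200008200093c0002030004030006e0000012000c77000abb000003000001,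
  nat_lit
  0x84c1a2451c4fef013c77e0d964e8c2d6d2097ea219b4b1dbd01ccb7be31176f546002ee378f26478f5763dc73665f6ad3dc44678fa75000c7778fb897db46b0000237db2890006ef,
  nat_lit
  0xa1cda2041103121c4754165e2feebb548e47411e5c3017fe54024340124f1c01894443430000430008400004df0007f5000a0f0000500000c00000410001400001ac000440000001]
theorem vE : Valid mt cE := valid_mt (valid_of_words (ws := [[nat_lit 0x1dab49c0527950c598ed4a9c4bc401860721],
  [nat_lit 0x2d924a19c880d8f5497599c4d05e21000000, nat_lit 0, nat_lit 0x35863a1d2596b07a6d322af4888619e45ac], [nat_lit 0x69623bbe151266e0ad94b10e044946a5eff8]])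
  (by decide +kernel))
/-- data -/
def aE : List ℕ := [nat_lit
  0x800000400000200000100000080000040000020000010000008000004000002000001000000800000400000200000100000080000040000020000010000008000004000002000001,
  nat_lit
  0x844f973dfe7f5f948012624177d6437c9e117fb0840429fc02a6820040e17d91007deebf00080200004200008200093c0002030004030006e0000012000c77000abb000003000001,
  nat_lit
  0x84c1a2451c4fef013c77e0d964e8c2d6d2097ea219b4b1dbd01ccb7be31176f546002ee378f26478f5763dc73665f6ad3dc44678fa75000c7778fb897db46b0000237db2890006ef,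
  nat_lit
  0x494db97e830bdfd687416f3b2a910bfac80b3ed7a8fd5e03dd0f1b3ed7ba6eb23f7e8f940540ed0548fc4076cf18477f4073500541100000040549007dbedc0006e77db4660006ef,
  nat_lit
  0xfa3a3938ada096fd400872d0618d8cd7f9147bcb0cb7fd21d63f2303394b71b8327d9920054ffb0546164074ba184620407ff50547ea0000080548e87dbef90006e27dbeda0006ee,
  nat_lit
  0xdc60645fac373640c35c41c3e1bb38f5e9af8f02ce34063af32afb8ec0cbb0e2c173b340210000048ded101496101208482886210f027dbedc04842a7db2ad7db81100002000002a,
  nat_lit
  0xb3d6c4994825608747dc7ab9408f6f907b609f10b9640ea8907b299a59b9857229dc70d6210020210f224828a648224210149c048de700002304840a0000027db44100000a00002a,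
  nat_lit
  0xdd4242207e9d4e9eb7249bb3e0de90f384b4f49ef0316296f24b56f25b57b6c8b60945465bbd7c7e3fc26f84156f800b37b9855bbc817db8317e32457db2817db83c0006e0000a94]
/-- data -/
def wE : List ℕ := [nat_lit 0, nat_lit 1, nat_lit 2, nat_lit 65, nat_lit 34, nat_lit 66, nat_lit 2113, nat_lit
  1090]
/-- data -/
def qE : List ℕ := [nat_lit
  0x800000400000200000100000080000040000020000010000008000004000002000001000000800000400000200000100000080000040000020000010000008000004000002000001,
  nat_lit
  0xfdb28e40000f20002810002408000a04002d020a900100020080060046c000202f00100f000801000401000201000101000081000041000020000011000008000004000002000001,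
  nat_lit
  0x94967b00109e00a9fe0822251021bf01262d020a010421fe20261700460100213e400a0100001000004000008000093e000201000401000020000801000008000004000002000001,
  nat_lit
  0xe924f500109100a9d60822011021b50126000200910421fc2026110040c1002111400a0e00001100004100008100093f000200000400000020000800000008000004000002000001,
  nat_lit
  0xd48e6b342f3134928f1992cf391fab28109e1f0e591592df2c955838c6234510e20981ce0001ec000dc60007b500049e0003da000f69000020000f13000008000004000002000001,
  nat_lit
  0xa0aeef00148e111cad5017fa503ff0508fea42144e3013fe54060740500f18042440024e00040000080100049e0007b4000a4e000011000020000040000008000004000002000001,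
  nat_lit
  0xdd1c61001481111c855017de503ffa508fc7421ede3013fc5406014056cf18040b40024100040100080000049f0007b5000a4f000010000020000041000008000004000002000001,
  nat_lit
  0xa93ce5342f3e3492a71992eb391fa12810b31f04c91592dd2c955e38c0e34510cd0981c10001ed000dc70007b400049f0003db000f68000020000f12000008000004000002000001,
  nat_lit
  0x852abf4002412007401007800803c004002d0202810108130085c00046c000283e001481000800000401000201000101000081000041000020000010000008000004000002000001,
  nat_lit
  0x8cbe710981ce0583fd243a8561257e012b1322aa3924838705a2d5056e13208207342f31000dc60001ec00010000020100093f000f13000020000f69000008000004000002000001,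
  nat_lit
  0xf10cff0981c10583d5243aa1612574012b3e22a0a924838505a2d30568d3208228342f3e000dc70001ed00010100020000093e000f12000020000f68000008000004000002000001,
  nat_lit
  0x91ba2900141e00a4010829da102e010126000208810429ec2029690040c100290140084100001000004100008100093f000200000400000020000801000008000004000002000001,
  nat_lit
  0xec08a700141100a4290829fe102e0b01262d0202110429ee20296f00460100292e40084e00001100004000008000093e000201000401000020000800000008000004000002000001,
  nat_lit
  0xe5903034296625265641a67804bcf004016c22ac6e21a27c250e7e05683e208f6e098d06000f68000f1200093e0000810001000001ec000020000dc6000008000004000002000001,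
  nat_lit
  0x899e5d098fdc058e03243157612053012b3e22a20724812b05a7140568d32080863427e3000dc60001ed00010100020000093e000f12000020000f69000008000004000002000001,
  nat_lit
  0xf42cd3098fd3058e2b243173612059012b1322a89724812905a712056e132080a93427ec000dc70001ec00010000020100093f000f13000020000f68000008000004000002000001,
  nat_lit
  0x9822be34296925267e41a65c04bcfa04014122a6fe21a27e250e78056efe208f41098d09000f69000f1300093f0000800001010001ed000020000dc7000008000004000002000001,
  nat_lit
  0xf8983140024e2007681007a40803ca0400000208110108110085c600400000281100148e000801000400000200000100000080000040000020000011000008000004000002000001,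
  nat_lit
  0xd83c6000100011179750169f503685508fc7421a9f3017bd5403ed4056cf18004a40000000040000080000049f0007b5000a4f000010000020000040000008000004000002000001,
  nat_lit
  0xac16773427ec34930b199ff83910332810b31f0a37159c232c90b338c0e3451e33098fd30001ec000dc70007b400049f0003db000f68000020000f13000008000004000002000001,
  nat_lit
  0xa58eee00100f1117bf5016bb50368f508fea42100f3017bf5403eb40500f18006540000f00040100080100049e0007b4000a4e000011000020000041000008000004000002000001,
  nat_lit
  0xd1a4f93427e3349323199fdc39103928109e1f00a7159c212c90b538c623451e1c098fdc0001ed000dc60007b500049e0003da000f69000020000f12000008000004000002000001,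
  nat_lit
  0xbda000098d0669836e7c08fd5c8a5f50884e1f02916d076e71870c38ca91451b6e342966000f12000f680003db000a4e0007b5000dc60000200001ec000008000004000002000001,
  nat_lit
  0xb43e5340084e4c0ba6483f6f481e4b281b684214d148864b091451405c911803fe001411000040000011000a4e0003da00049f000800000020000401000008000004000002000001,
  nat_lit
  0xc98cdd4008414c0b8e483f4b481e41281b45421e41488649091457405a511803d100141e000041000010000a4f0003db00049e000801000020000400000008000004000002000001,
  nat_lit
  0xc0128e098d096983467c08d95c8a555088631f08016d076c71870a38cc51451b41342969000f13000f690003da000a4f0007b4000dc70000200001ed000008000004000002000001,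
  nat_lit
  0xccaa31400a014c0a23483275481b40281b45421a01488209091b05405a5118079100109e000040000010000a4f0003db00049e000801000020000401000008000004000002000001,
  nat_lit
  0xc53ef109831a6988557c09b55c89b95088631f06fe6d099371885938cc514515be3421ba000f12000f690003da000a4f0007b4000dc70000200001ec000008000004000002000001,
  nat_lit
  0xb118bf400a0e4c0a0b483251481b4a281b6842109148820b091b03405c911807be001091000041000011000a4e0003da00049f000800000020000400000008000004000002000001,
  nat_lit
  0xb88c7f09831569887d7c09915c89b350884e1f0c6e6d099171885f38ca914515913421b5000f13000f680003db000a4e0007b5000dc60000200001ed000008000004000002000001,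
  nat_lit
  0xe0b6f13421b525211741a1d504b5a304014122a45121a0d1250101056efe208dee098315000f68000f1300093f0000800001010001ed000020000dc6000008000004000002000001,
  nat_lit
  0x9d047f3421ba25213f41a1f104b5a904016c22aec121a0d325010705683e208dc109831a000f69000f1200093e0000810001000001ec000020000dc7000008000004000002000001]
/-- data -/
def wA : List ℕ := [nat_lit 0, nat_lit 0, nat_lit 0, nat_lit 0, nat_lit 0, nat_lit 0, nat_lit 0, nat_lit
  0x73a0c7, nat_lit 6375, nat_lit 6408, nat_lit 0, nat_lit 6, nat_lit 0, nat_lit 270566, nat_lit 236806,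
  nat_lit 0, nat_lit 205063, nat_lit 199, nat_lit 0, nat_lit 6407, nat_lit 0, nat_lit 204008, nat_lit 200,
  nat_lit 6376, nat_lit 0, nat_lit 0, nat_lit 0, nat_lit 198, nat_lit 268520, nat_lit 235783, nat_lit 0,
  nat_lit 0, nat_lit 0, nat_lit 0, nat_lit 0, nat_lit 0x7420e6, nat_lit 0, nat_lit 0, nat_lit 230, nat_lit
  262, nat_lit 6343, nat_lit 0, nat_lit 8391, nat_lit 0, nat_lit 203015, nat_lit 6344, nat_lit 0, nat_lit
  7368, nat_lit 268519, nat_lit 0, nat_lit 0, nat_lit 237831, nat_lit 0, nat_lit 231, nat_lit 264, nat_lit 0,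
  nat_lit 0, nat_lit 0, nat_lit 8423, nat_lit 7432, nat_lit 0, nat_lit 0, nat_lit 0, nat_lit 0, nat_lit 0,
  nat_lit 8455, nat_lit 7, nat_lit 0, nat_lit 0, nat_lit 263, nat_lit 7400, nat_lit 8, nat_lit 0, nat_lit 232,
  nat_lit 0, nat_lit 0, nat_lit 204006, nat_lit 237767, nat_lit 0, nat_lit 204038, nat_lit 0x831d06, nat_lit
  0, nat_lit 7366, nat_lit 0, nat_lit 0x831ce6, nat_lit 7398, nat_lit 269542, nat_lit 0, nat_lit 0, nat_lit
  7430, nat_lit 0, nat_lit 0, nat_lit 0, nat_lit 0, nat_lit 0, nat_lit 0x641cc6, nat_lit 235720, nat_lit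
  269510, nat_lit 0, nat_lit 0, nat_lit 0, nat_lit 205062, nat_lit 269512, nat_lit 205030, nat_lit 0, nat_lit
  0x7320e6, nat_lit 0, nat_lit 8390, nat_lit 0x6320e6, nat_lit 0, nat_lit 8454, nat_lit 237830, nat_lit 0,
  nat_lit 8422, nat_lit 0, nat_lit 0x63a0c6, nat_lit 268487, nat_lit 237766, nat_lit 0, nat_lit 0, nat_lit 0,
  nat_lit 0, nat_lit 0, nat_lit 0, nat_lit 0]
/-- data -/
def tE : T := (.node (.node (.node (.node (.node (.node .nil (nat_lit 15) (nat_lit 0) (nat_lit 15) .nil)
  (nat_lit 39) (nat_lit 224) (nat_lit 3161) (.node .nil (nat_lit 46) (nat_lit 33) (nat_lit 15) .nil)) (nat_lit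
  47) (nat_lit 64) (nat_lit 46) (.node (.node .nil (nat_lit 1734) (nat_lit 209) (nat_lit 0x7db463) .nil)
  (nat_lit 1735) (nat_lit 593) (nat_lit 0x7db832) (.node .nil (nat_lit 1737) (nat_lit 144) (nat_lit 2742)
  .nil))) (nat_lit 1738) (nat_lit 513) (nat_lit 0x7db839) (.node (.node (.node .nil (nat_lit 1742) (nat_lit
  16) (nat_lit 15) .nil) (nat_lit 1764) (nat_lit 753) (nat_lit 0x7db836) (.node .nil (nat_lit 1768) (nat_lit
  449) (nat_lit 0x7db46c) .nil)) (nat_lit 1769) (nat_lit 481) (nat_lit 0x7db83d) (.node (.node .nil (nat_lit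
  2704) (nat_lit 880) (nat_lit 2705) .nil) (nat_lit 2705) (nat_lit 737) (nat_lit 1738) (.node .nil (nat_lit
  2715) (nat_lit 896) (nat_lit 1764) .nil)))) (nat_lit 2717) (nat_lit 945) (nat_lit 2704) (.node (.node (.node
  (.node .nil (nat_lit 2718) (nat_lit 816) (nat_lit 3166) .nil) (nat_lit 2738) (nat_lit 49) (nat_lit 1742)
  (.node .nil (nat_lit 2740) (nat_lit 720) (nat_lit 1738) .nil)) (nat_lit 2742) (nat_lit 81) (nat_lit 46)
  (.node (.node .nil (nat_lit 3158) (nat_lit 609) (nat_lit 0x7dbef8) .nil) (nat_lit 3159) (nat_lit 672)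
  (nat_lit 1768) (.node .nil (nat_lit 3161) (nat_lit 129) (nat_lit 47) .nil))) (nat_lit 3164) (nat_lit 929)
  (nat_lit 2718) (.node (.node (.node .nil (nat_lit 3166) (nat_lit 641) (nat_lit 0x7db442) .nil) (nat_lit
  3186) (nat_lit 96) (nat_lit 2738) (.node .nil (nat_lit 3192) (nat_lit 352) (nat_lit 1734) .nil)) (nat_lit
  3193) (nat_lit 800) (nat_lit 1735) (.node (.node .nil (nat_lit 0x7db280) (nat_lit 705) (nat_lit 1769) .nil)
  (nat_lit 0x7db28b) (nat_lit 560) (nat_lit 0x7dbed9) .nil)))) (nat_lit 0x7db28e) (nat_lit 192) (nat_lit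
  0x7db463) (.node (.node (.node (.node (.node .nil (nat_lit 0x7db2a4) (nat_lit 432) (nat_lit 0x7dbef7) .nil)
  (nat_lit 0x7db2a6) (nat_lit 848) (nat_lit 0x7dbef4) (.node .nil (nat_lit 0x7db2a9) (nat_lit 785) (nat_lit
  0x7db28b) .nil)) (nat_lit 0x7db2ab) (nat_lit 496) (nat_lit 0x7db839) (.node (.node .nil (nat_lit 0x7db2ac)
  (nat_lit 864) (nat_lit 0x7db280) .nil) (nat_lit 0x7db440) (nat_lit 161) (nat_lit 2742) (.node .nil (nat_lit
  0x7db442) (nat_lit 417) (nat_lit 0x7db46a) .nil))) (nat_lit 0x7db444) (nat_lit 464) (nat_lit 0x7dbed7)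
  (.node (.node (.node .nil (nat_lit 0x7db463) (nat_lit 113) (nat_lit 2738) .nil) (nat_lit 0x7db465) (nat_lit
  337) (nat_lit 0x7db28e) (.node .nil (nat_lit 0x7db46a) (nat_lit 241) (nat_lit 3161) .nil)) (nat_lit
  0x7db46c) (nat_lit 272) (nat_lit 0x7db440) (.node (.node .nil (nat_lit 0x7db46f) (nat_lit 624) (nat_lit
  0x7db442) .nil) (nat_lit 0x7db810) (nat_lit 177) (nat_lit 3186) .nil))) (nat_lit 0x7db81d) (nat_lit 832)
  (nat_lit 0x7dbef0) (.node (.node (.node (.node .nil (nat_lit 0x7db81e) (nat_lit 768) (nat_lit 0x7dbef2)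
  .nil) (nat_lit 0x7db832) (nat_lit 385) (nat_lit 39) (.node .nil (nat_lit 0x7db836) (nat_lit 528) (nat_lit
  0x7db465) .nil)) (nat_lit 0x7db839) (nat_lit 321) (nat_lit 0x7db810) (.node (.node .nil (nat_lit 0x7db83a)
  (nat_lit 912) (nat_lit 0x7db2a9) .nil) (nat_lit 0x7db83d) (nat_lit 304) (nat_lit 0x7db810) (.node .nil
  (nat_lit 0x7dbed7) (nat_lit 289) (nat_lit 0x7db440) .nil))) (nat_lit 0x7dbed9) (nat_lit 369) (nat_lit 1734)
  (.node (.node (.node .nil (nat_lit 0x7dbede) (nat_lit 576) (nat_lit 0x7db832) .nil) (nat_lit 0x7dbef0)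
  (nat_lit 657) (nat_lit 0x7db2a4) (.node .nil (nat_lit 0x7dbef2) (nat_lit 545) (nat_lit 3192) .nil)) (nat_lit
  0x7dbef4) (nat_lit 689) (nat_lit 0x7db444) (.node (.node .nil (nat_lit 0x7dbef7) (nat_lit 257) (nat_lit
  1737) .nil) (nat_lit 0x7dbef8) (nat_lit 400) (nat_lit 0x7db46a) .nil)))))

/-- the alternating group of degree five -/
noncomputable def A0 : Subgroup Co1 := Mb (al cB) [5, 6, 7]

/-- images of the letters -/
def dA (i : ℕ) : alternatingGroup (Fin 5) :=
  if i = 5 then ⟨Equiv.swap 0 2 * Equiv.swap 0 1, Equiv.Perm.mem_alternatingGroup.2 (by decide)⟩ else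
  if i = 6 then ⟨Equiv.swap 0 3 * Equiv.swap 0 1, Equiv.Perm.mem_alternatingGroup.2 (by decide)⟩ else
    ⟨Equiv.swap 0 4 * Equiv.swap 0 1, Equiv.Perm.mem_alternatingGroup.2 (by decide)⟩

theorem isoA : Nonempty (alternatingGroup (Fin 5) ≃* A0) :=
  (md vB 8).iso num (d := dA) (wd := fun x => dw (lget wA 0 ((x.1 0).val + 5 * (x.1 1).val + 25 * (x.1 2).val)))
    (by decide +kernel) (by decide +kernel)

theorem cardA : Nat.card A0 = 60 := by
  obtain ⟨e⟩ := isoA
  rw [← Nat.card_congr e.toEquiv, nat_card_alternatingGroup]; simp [Nat.factorial]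

/-- commuting with the generators -/
noncomputable def cA (k : ℕ) : Bool := lall [5, 6, 7] fun i => cmm (lget cB onem i) k

theorem mem_cA {g : Co1} (h : cA (mt g) = true) : g ∈ C[A0] := mem_cent_iff_le_cent1.2 (cen vB rfl h)

theorem Az : A0 ≤ C1[z0] := cen vB mt_z0 (by decide +kernel)

theorem Ag : A0 ≤ C1[g0] := cen vB (mt_al vB 4) (by decide +kernel)

theorem Au : u0 ∈ A0 := mul_mem (mul_mem (Mb.of (i := 5) (by decide)) (Mb.of (i := 6) (by decide)))
  (Mb.of (i := 7) (by decide))

theorem eE : Mb (al cE) [0, 1] ≤ C1[z0] ⊓ C[A0] := le_inf (cen vE mt_z0 (by decide +kernel)) (Mb.le fun i hi =>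
  mem_cA (by rw [mt_al vE]; revert i; decide +kernel))

theorem eL : Mb (al cE) [0, 1, 2] ≤ C1[z0] ⊓ C[A0] ⊔ zpowers g0 := Mb.le (by
  simp only [List.forall_mem_cons]
  exact ⟨mem_sup_left (eE (Mb.of (by decide))), mem_sup_left (eE (Mb.of (by decide))), mem_sup_right (by
    rw [show al cE 2 = g0 from mt_inj (by rw [g0, mt_al vE, mt_al vB]; decide +kernel)]; exact mem_zpowers _),
    by simp⟩)

theorem cardE : 1920 ≤ Nat.card (C1[z0] ⊓ C[A0] : Subgroup Co1) := by
  refine le_trans ?_ (card_lb (l := cE.take 2) (y := 15) (n := 60) (t := tE)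
    (fun s hs => vE s (List.mem_of_mem_take hs)) (gen_le fun g hg => ?_) (by decide +kernel))
  · refine Nat.mul_le_mul_right 60 (card_ge (L := qE) (by decide +kernel) fun k hk => ?_)
    have := (lall_iff _ _).1 (by decide +kernel : lall qE (fun k => band (tQ.has k) (cA k)) = true) k hk
    rw [band_eq, Bool.and_eq_true] at this
    obtain ⟨g, a, rfl⟩ := Q1_has this.1
    exact ⟨g, ⟨⟨lt0.le_cent1 a, mem_cA this.2⟩, a⟩, rfl⟩
  · have := (lall_iff _ _).1 (by decide +kernel : lall (cE.take 2) (fun k => band (cmm k mZ) (cA k)) = true) _ hg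
    rw [band_eq, Bool.and_eq_true] at this
    exact ⟨mem_cent1.2 (cmm_iff.1 (mt_z0 ▸ this.1)), mem_cA this.2⟩

theorem nc1 : ¬ Commute (xx 1) u0 := fun h => by
  have := cmm_iff.2 h
  rw [mt3, mt5] at this
  revert this; decide +kernel

theorem F1 (c : Co1) (hc : c ∈ C1[z0] ⊓ C1[u0]) : ∃ n : ℤ, u0 ^ n * c ∈ C[A0] := by
  have a : zpowers u0 ≤ N[C1[z0] ⊓ C[A0]] := le_norm_of_cent (zpowers_le.2 fun x hx => (hx.2 _ Au).symm)
  have e : zpowers u0 ⊔ C1[z0] ⊓ C[A0] = C1[z0] ⊓ C1[u0] := eq_of_le_of_card_ge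
    (sup_le (zpowers_le.2 ⟨Az Au, mem_cent1.2 rfl⟩) (inf_le_inf_left _ (cent_le_cent1 Au))) (by
      rw [card_sup_of_inf_eq_bot (Or.inl a) (eq_bot_iff.2 fun x hx => eq_one_of_zp (ord5 ▸ by norm_num) hx.1 nc1
        (hx.2.2 _ (Mb.of (i := 5) (by decide)))), dsc5.cC, dsc5.cR, Nat.card_zpowers, ord5]
      have := cardE
      omega)
  obtain ⟨_, ⟨n, rfl⟩, b, d, rfl⟩ := (mem_sup_of_le_norm a).1 (e.ge hc)
  exact ⟨-n, by simpa using d.2⟩

theorem Qg : (tQ.all fun k _ _ => bor (!cmm k (lget cB onem 4)) (Nat.beq k onem)) = true :=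
  tQ_all (by decide +kernel) (by decide +kernel) (by decide +kernel) (by decide +kernel) (by decide +kernel)

theorem F2 (c : Co1) (h1 : c ∈ C1[z0]) (h2 : c ∈ C[C1[z0] ⊓ C[A0]]) (h3 : Commute c g0) : c ∈ A0 := by
  have a : A0 = C1[z0] ⊓ C[C1[z0] ⊓ C[A0]] ⊓ C1[g0] := eq_of_le_of_card_ge
    (le_inf (le_inf Az (le_cent_symm inf_le_right)) Ag) (by
      refine (card_ub (As := aE) (fs := [15, 1742, 46, 2738, 47, 2742, 8238179, 1737]) (y := 15) (n := 60)
        (inf_le_left.trans inf_le_left) (fun A hA => ?_) (by decide +kernel)).trans ?_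
      · obtain ⟨w, b⟩ := lall2_sound (by decide +kernel : lall2 aE
          (fun A w => band (lsub (dw w) [0, 1]) (Nat.beq (wm cE (dw w)) A)) wE = true) A hA
        rw [band_eq, Bool.and_eq_true, Nat.beq_eq] at b
        exact ⟨_, (mt_evl vE _).trans b.2, inf_le_left.trans (inf_le_right.trans (cent_le_cent1 (eE (Mb.ev' b.1))))⟩
      · rw [show _ ⊓ Q1 = ⊥ from eq_bot_iff.2 fun x hx => ?_, card_bot, cardA]
        have := Q1_all (f := fun k => bor (!cmm k (lget cB onem 4)) (Nat.beq k onem)) Qg hx.2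
        rw [← mt_al vB, cmm_iff (h := al cB 4).2 (mem_cent1.1 hx.1.2)] at this
        exact mt_inj ((Nat.eq_of_beq_eq_true this).trans mt_one.symm))
  exact a.ge ⟨⟨h1, h2⟩, mem_cent1.2 h3⟩

theorem mod5 : Mod5 (Q1 ⊓ C1[u0]) A0 z0 g0 (xx 1) (xx 2) u0 (evl (al cE) (pww [2, 0, 1] 5))
    (evl (al cE) (pww [2, 1, 2, 2, 1, 0] 5 ++ pww [2, 0, 1] 5 ++ [2, 1, 2, 2, 1, 0]))
    (evl (al cE) (pww [2, 0, 1] 2)) := by
  refine ⟨dsc5, ord3 ▸ Nat.prime_three, ord5, Az, Ag, Mb.of (i := 5) (by decide), Mb.of (i := 6) (by decide), Au,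
    fun h => absurd (cmm_iff.2 h) (by simp only [xx, mt_al vB]; decide +kernel), nc1,
    by rw [gz, g0_eq]; exact mul_mem v4.na v4.nb, F1, F2, eL (Mb.ev (by decide)), eL (Mb.ev (by decide)),
    eL (Mb.ev (by decide)), mt_inj ?_, ne_of_mt ?_, mt_inj ?_, ne_of_mt ?_, ne_of_mt ?_, cmm_iff.1 ?_,
    cmm_iff.1 ?_, cmm_iff.1 ?_, (evl_pww _ 5).symm.trans (mt_inj ?_), ne_of_mt ?_⟩ <;>
  simp only [mt_mul, mt_evl vE, mt_one] <;> decide +kernel

variable {G : Type*} [Group G] [Finite G] {K M : Subgroup (Co1 × G)} {z : G}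

theorem main85 {Q B : Subgroup C1[z]} (h : RH z0 s0 z K M)
    (hQ : ∀ p ∈ K, p.1 ∈ Q1 ↔ p.2 ∈ Q.map (C1[z]).subtype) (hB : Nat.card B = 5)
    (hc : Nat.card (Q ⊓ C[B] : Subgroup C1[z]) = 32) : IsoJ2 (layer C[B.map (C1[z]).subtype]) ∧
      Nonempty (C[(layer C[B.map (C1[z]).subtype]).map (Subgroup.subtype _)] ≃* alternatingGroup (Fin 5)) := by
  obtain ⟨y, k, a, e⟩ := pull h.kz hQ (p := 5) (by norm_num) hB (n := 32) (fun u hu =>
    hc.ge.trans (card_le_of_le (le_inf (inf_le_right.trans (cent_le_cent1 hu)) inf_le_left))) ord5 fun _ => cls5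
  obtain ⟨⟨b⟩, ⟨c⟩⟩ := five (gz.symm ▸ h) mod5 (fun _ => ker3 h) a
  obtain ⟨d⟩ := isoA
  have o : (layer C[B.map (C1[z]).subtype]).map (Subgroup.subtype _) = cj[k] (layerOf C1[y]) := by
    rw [map_subtype_layer, layerOf_map (MulAut.conj k).injective, conj_cent1, e, cent_zp]; rfl
  refine ⟨⟨((equivMapOfInjective _ _ (subtype_injective _)).trans (MulEquiv.subgroupCongr o)).trans
    (((MulAut.conj k).subgroupMap _).symm.trans b)⟩, ?_⟩
  rw [o, ← conj_centralizer]
  exact ⟨((MulAut.conj k).subgroupMap _).symm.trans (c.trans d.symm)⟩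

end Cfsg.Agent.CX
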